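import Cfsg.Agent.SpSix.Symp
import Cfsg.Agent.Schur.TwoCert
import Cfsg.Agent.SchurClassical.SympCross
import Cfsg.Agent.SchurClassical.SpFourTwo
import Cfsg.Agent.SmallIso.FieldChange
import Cfsg.Agent.SchurMult.Multiplier

/-!
The double cover of `Sp6(2)` as permutations of the 240 shortest vectors of `E8`, and the Schur
multiplier of `Sp6(2)`.
-/

set_option autoImplicit false
set_option maxRecDepth 100000
set_option synthInstance.maxSize 512

noncomputable section

namespace CfsgLib.SpSix

open CfsgLib.CosetEnum
open scoped commutatorElement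

attribute [local irreducible] letters eltWords eltCodes twoWords transWords vecCodes cert

/-- One byte of a packed permutation. -/
def byteAt (c i : ℕ) : ℕ := (c >>> (8 * i)) % 256

/-- A letter as a function. -/
def letterFun (x i : ℕ) : ℕ := byteAt (letters.getD x 0) i

/-- A chosen element as a function. -/
def eltFun (k i : ℕ) : ℕ := if k < 15 then byteAt (eltCodes.getD k 0) i else i

/-- The value of a product. -/
def runF (f : ℕ → ℕ → ℕ) : List ℕ → ℕ → ℕ
  | [], i => i
  | x :: w, i => f x (runF f w i)

/-- A table of a permutation of 240 points. -/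
def tableOK (f : ℕ → ℕ) : Bool :=
  decide ((List.range 240).map f).Nodup && (List.range 240).all fun i => decide (f i < 240)

theorem letters_ok : (List.range 8).all (fun x => tableOK (letterFun x)) = true := by decide +kernel

theorem letter_lt {x : ℕ} (hx : x < 8) (i : Fin 240) : letterFun x i < 240 := by
  have h := List.all_eq_true.1 letters_ok x (List.mem_range.2 hx)
  simp only [tableOK, Bool.and_eq_true, List.all_eq_true, List.mem_range, decide_eq_true_eq] at h
  exact h.2 i i.2

theorem letter_inj {x : ℕ} (hx : x < 8) :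
    Function.Injective fun i : Fin 240 => (⟨letterFun x i, letter_lt hx i⟩ : Fin 240) := by
  intro i j hij
  have h := List.all_eq_true.1 letters_ok x (List.mem_range.2 hx)
  simp only [tableOK, Bool.and_eq_true, decide_eq_true_eq] at h
  exact Fin.ext (List.inj_on_of_nodup_map h.1 (List.mem_range.2 i.2) (List.mem_range.2 j.2)
    (congrArg Fin.val hij))

/-- A letter as a permutation. -/
def letterPerm (x : ℕ) : Equiv.Perm (Fin 240) :=
  if hx : x < 8 then Equiv.ofBijective _ (Finite.injective_iff_bijective.1 (letter_inj hx)) else 1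

theorem letterPerm_apply {x : ℕ} (hx : x < 8) (i : Fin 240) :
    ((letterPerm x i : Fin 240) : ℕ) = letterFun x i := by
  rw [letterPerm, dif_pos hx]; rfl

/-- The double cover. -/
def Gam : Subgroup (Equiv.Perm (Fin 240)) := Subgroup.closure {a | ∃ x < 8, letterPerm x = a}

theorem letterPerm_mem (x : ℕ) : letterPerm x ∈ Gam := by
  by_cases hx : x < 8
  · exact Subgroup.subset_closure ⟨x, hx, rfl⟩
  · rw [letterPerm, dif_neg hx]; exact one_mem _

/-- A letter in the cover. -/
def letterG (x : ℕ) : Gam := ⟨letterPerm x, letterPerm_mem x⟩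

theorem gword_runF {g : ℕ → Gam} {f : ℕ → ℕ → ℕ} {L : ℕ}
    (hg : ∀ x < L, ∀ i : Fin 240, (((g x : Equiv.Perm (Fin 240)) i : Fin 240) : ℕ) = f x i)
    {w : List ℕ} (hw : w.all (fun x => decide (x < L)) = true) (i : Fin 240) :
    ((((gword g w : Gam) : Equiv.Perm (Fin 240)) i : Fin 240) : ℕ) = runF f w i := by
  induction w with
  | nil => rfl
  | cons x w ih =>
    simp only [List.all_cons, Bool.and_eq_true, decide_eq_true_eq] at hw
    rw [gword_cons, Subgroup.coe_mul, Equiv.Perm.mul_apply, hg x hw.1, runF, ih hw.2]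

theorem letterG_apply (x : ℕ) (hx : x < 8) (i : Fin 240) :
    (((letterG x : Equiv.Perm (Fin 240)) i : Fin 240) : ℕ) = letterFun x i := letterPerm_apply hx i

/-- A chosen element. -/
def eltG (k : ℕ) : Gam := gword letterG (eltWords.getD k [])

/-- The checks on the chosen elements. -/
def eltOK : Bool :=
  eltWords.length == 15 && (List.range 15).all fun k =>
    (eltWords.getD k []).all (fun x => decide (x < 8)) &&
      (List.range 240).all fun i => runF letterFun (eltWords.getD k []) i == eltFun k i

theorem eltOK_true : eltOK = true := by decide +kernel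

theorem eltG_apply (k : ℕ) (i : Fin 240) :
    (((eltG k : Equiv.Perm (Fin 240)) i : Fin 240) : ℕ) = eltFun k i := by
  have h := eltOK_true
  simp only [eltOK, Bool.and_eq_true, beq_iff_eq, List.all_eq_true, List.mem_range] at h
  obtain ⟨hlen, hall⟩ := h
  rcases lt_or_ge k 15 with hk | hk
  · rw [eltG, gword_runF letterG_apply (List.all_eq_true.2 (hall k hk).1), (hall k hk).2 i i.2]
  · rw [eltG, List.getD_eq_default _ _ (by rw [hlen]; exact hk), gword_nil, eltFun,
      if_neg (by omega)]
    rfl

theorem gword_elt_apply (w : List ℕ) (i : Fin 240) :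
    ((((gword eltG w : Gam) : Equiv.Perm (Fin 240)) i : Fin 240) : ℕ) = runF eltFun w i :=
  gword_runF (L := w.sum + 1) (fun x _ => eltG_apply x)
    (List.all_eq_true.2 fun _ hx => decide_eq_true (Nat.lt_succ_of_le (List.le_sum_of_mem hx))) i

/-- The central involution. -/
def zC : Gam := letterG 7

theorem letter_word {u w : List ℕ} (hu : u.all (fun x => decide (x < 8)) = true)
    (hw : w.all (fun x => decide (x < 8)) = true)
    (h : (List.range 240).all (fun i => runF letterFun u i == runF letterFun w i) = true) :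
    gword letterG u = gword letterG w := by
  simp only [List.all_eq_true (l := List.range 240), List.mem_range, beq_iff_eq] at h
  refine Subtype.ext (Equiv.ext fun i => Fin.ext ?_)
  rw [gword_runF letterG_apply hu, gword_runF letterG_apply hw]
  exact h i i.2

theorem zC_sq : zC ^ 2 = 1 := by
  simpa [gword, zC, pow_two] using letter_word (u := [7, 7]) (w := []) (by decide) (by decide)
    (by decide +kernel)

theorem zC_ne : zC ≠ 1 := by
  intro h
  have key : letterFun 7 0 ≠ 0 := by decide +kernel
  refine key ?_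
  rw [← show ((0 : Fin 240) : ℕ) = 0 from rfl, ← letterG_apply 7 (by norm_num), ← zC, h]
  rfl

theorem closure_letterG : Subgroup.closure {a : Gam | ∃ x < 8, letterG x = a} = ⊤ := by
  refine Subgroup.map_injective (f := Gam.subtype) Subtype.val_injective ?_
  rw [MonoidHom.map_closure, ← MonoidHom.range_eq_map, Subgroup.range_subtype]
  show _ = Subgroup.closure _
  refine congrArg Subgroup.closure (Set.ext fun a => ?_)
  constructor
  · rintro ⟨_, ⟨x, hx, rfl⟩, rfl⟩; exact ⟨x, hx, rfl⟩
  · rintro ⟨x, hx, rfl⟩; exact ⟨_, ⟨x, hx, rfl⟩, rfl⟩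

theorem zC_central : zC ∈ Subgroup.center Gam := by
  have key : (List.range 8).all (fun x => (List.range 240).all fun i =>
      runF letterFun [x, 7] i == runF letterFun [7, x] i) = true := by decide +kernel
  refine Subgroup.mem_center_iff.2 fun g => ?_
  refine Subgroup.closure_induction (p := fun g _ => g * zC = zC * g) ?_ (by simp)
    (fun u v _ _ hu hv => by rw [mul_assoc, hv, ← mul_assoc, hu, mul_assoc])
    (fun u _ hu => (Commute.inv_left (show Commute u zC from hu)).eq)
    (closure_letterG ▸ Subgroup.mem_top g)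
  rintro _ ⟨x, hx, rfl⟩
  simpa [gword, zC] using letter_word (u := [x, 7]) (w := [7, x]) (by simp [hx]) (by simp [hx])
    (List.all_eq_true.1 key x (List.mem_range.2 hx))

/-- The centre generated by the involution. -/
abbrev Zc : Subgroup Gam := Subgroup.zpowers zC

theorem Zc_le_center : Zc ≤ Subgroup.center Gam := Subgroup.zpowers_le.2 zC_central

instance Zc_normal : Zc.Normal :=
  ⟨fun n hn g => by rw [Subgroup.mem_center_iff.1 (Zc_le_center hn) g, mul_inv_cancel_right]; exact hn⟩

/-- The generators of the quotient. -/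
def quo (x : ℕ) : Gam ⧸ Zc := QuotientGroup.mk' Zc (letterG (pos x))

theorem quo_sevenRels : SevenRels quo := by
  refine ⟨fun w hw hx => ?_⟩
  have key : CosetEnum.Fi22.Tab.relWords.all (fun w => !(w.all fun x => L7.contains x) ||
      ((w.map pos).all (fun x => decide (x < 8)) &&
      ((List.range 240).all (fun i => runF letterFun (w.map pos) i == runF letterFun [] i) ||
      (List.range 240).all (fun i => runF letterFun (w.map pos) i == runF letterFun [7] i)))) =
        true := by decide +kernel
  have h := List.all_eq_true.1 key w hw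
  have hall : (w.all fun x => L7.contains x) = true :=
    List.all_eq_true.2 fun x hx' => List.contains_iff_mem.2 (hx x hx')
  rw [hall] at h
  simp only [Bool.not_true, Bool.false_or, Bool.and_eq_true, Bool.or_eq_true] at h
  have e : gword quo w = QuotientGroup.mk' Zc (gword letterG (w.map pos)) := by
    rw [gword_map]; simp only [gword, List.map_map, Function.comp_def]; rfl
  rw [e, ← MonoidHom.mem_ker, QuotientGroup.ker_mk']
  rcases h.2 with h' | h'
  · rw [letter_word h.1 (by decide) h']; exact one_mem _
  · rw [letter_word h.1 (by decide) h', show gword letterG [7] = zC by simp [gword, zC]]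
    exact Subgroup.mem_zpowers _

theorem sub7_quo : sub7 quo L7 = ⊤ := by
  rw [eq_top_iff]
  intro q _
  obtain ⟨g, rfl⟩ := QuotientGroup.mk'_surjective Zc q
  have hle : Subgroup.closure {a : Gam | ∃ x < 8, letterG x = a} ≤
      (sub7 quo L7).comap (QuotientGroup.mk' Zc) := by
    rw [Subgroup.closure_le]
    rintro _ ⟨x, hx, rfl⟩
    show QuotientGroup.mk' Zc (letterG x) ∈ sub7 quo L7
    by_cases h7 : x = 7
    · subst h7
      rw [show QuotientGroup.mk' Zc (letterG 7) = 1 from
        (QuotientGroup.eq_one_iff _).2 (Subgroup.mem_zpowers zC)]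
      exact one_mem _
    · refine Subgroup.subset_closure ⟨if x = 6 then 7 else x, ?_, ?_⟩
      · interval_cases x <;> first | decide | exact absurd rfl h7
      · interval_cases x <;> first | rfl | exact absurd rfl h7
  exact hle (closure_letterG ▸ Subgroup.mem_top g)

theorem quo_nontrivial : Nontrivial (Gam ⧸ Zc) := by
  refine ⟨⟨quo 0, 1, fun h => ?_⟩⟩
  have hmem : letterG 0 ∈ Zc := (QuotientGroup.eq_one_iff _).1 h
  obtain ⟨k, hk⟩ := hmem
  have key : ∃ i < 240, letterFun 0 i ≠ i ∧ letterFun 0 i ≠ letterFun 7 i := by decide +kernel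
  obtain ⟨i, hi, h1, h2⟩ := key
  rcases Int.even_or_odd' k with ⟨j, rfl | rfl⟩
  · refine h1 ?_
    have e : letterG 0 = 1 := by
      rw [← hk]
      show zC ^ (2 * j) = 1
      rw [zpow_mul, zpow_two, ← pow_two, zC_sq, one_zpow]
    rw [← letterG_apply 0 (by norm_num) ⟨i, hi⟩, e]
    rfl
  · refine h2 ?_
    have e : letterG 0 = zC := by
      rw [← hk]
      show zC ^ (2 * j + 1) = zC
      rw [zpow_add_one, zpow_mul, zpow_two, ← pow_two, zC_sq, one_zpow, one_mul]
    rw [← letterG_apply 0 (by norm_num) ⟨i, hi⟩, e, ← letterG_apply 7 (by norm_num) ⟨i, hi⟩]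
    rfl

theorem simple_SpG : IsSimpleGroup SpG := by
  haveI : IsSimpleGroup (Cfsg.PSp 3 (ZMod 2)) :=
    Classical.Symp.isSimpleGroup_quotient_center (by norm_num) (Classical.Symp.commutator_eq_top (Or.inl le_rfl))
  have hz : Subgroup.center SpG = ⊥ := Subgroup.card_eq_one.1
    (Classical.Symp.card_center_of_two_eq_zero (by decide))
  exact ((QuotientGroup.quotientMulEquivOfEq hz).trans QuotientGroup.quotientBot).symm.isSimpleGroup

theorem exists_equiv_quo : Nonempty (SpG ≃* Gam ⧸ Zc) := by
  let v : ℕ → SpG × (Gam ⧸ Zc) := fun x => (tLetter x, quo x)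
  have hrel : SevenRels v := ⟨fun w hw hx => Prod.ext
    (show MonoidHom.fst _ _ (gword v w) = 1 from (gword_map _ _ _).trans (sevenRels.rel w hw hx))
    (show MonoidHom.snd _ _ (gword v w) = 1 from (gword_map _ _ _).trans (quo_sevenRels.rel w hw hx))⟩
  obtain ⟨hle, hne⟩ := hrel.card_le
  have : Finite (sub7 v L7) := Nat.finite_of_card_ne_zero hne
  let P := sub7 v L7
  have hfst : P.map (MonoidHom.fst _ _) = ⊤ := by
    rw [← sub7_top]
    simp only [P, sub7, MonoidHom.map_closure]
    congr 1; ext a; simp [v]
  have hsnd : P.map (MonoidHom.snd _ _) = ⊤ := by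
    rw [← sub7_quo]
    simp only [P, sub7, MonoidHom.map_closure]
    congr 1; ext a; simp [v]
  let f : P →* SpG := (MonoidHom.fst _ _).comp P.subtype
  have hf : Function.Surjective f := fun q => by
    obtain ⟨y, hy, hyq⟩ : q ∈ P.map (MonoidHom.fst _ _) := hfst ▸ Subgroup.mem_top q
    exact ⟨⟨y, hy⟩, hyq⟩
  have hcard : Nat.card P = Nat.card SpG :=
    le_antisymm (hle.trans_eq card_SpG.symm) (Nat.card_le_card_of_surjective f hf)
  let e := MulEquiv.ofBijective f ((Nat.bijective_iff_surjective_and_card f).2 ⟨hf, hcard⟩)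
  let s : P →* Gam ⧸ Zc := (MonoidHom.snd _ _).comp P.subtype
  have hs : Function.Surjective s := fun q => by
    obtain ⟨y, hy, hyq⟩ : q ∈ P.map (MonoidHom.snd _ _) := hsnd ▸ Subgroup.mem_top q
    exact ⟨⟨y, hy⟩, hyq⟩
  have := simple_SpG
  have := quo_nontrivial
  let t : SpG →* Gam ⧸ Zc := s.comp e.symm.toMonoidHom
  have ht : Function.Surjective t := hs.comp e.symm.surjective
  refine ⟨MulEquiv.ofBijective t ⟨?_, ht⟩⟩
  rw [← MonoidHom.ker_eq_bot_iff]
  refine t.normal_ker.eq_bot_or_eq_top.resolve_right fun htop => ?_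
  obtain ⟨a, b, hab⟩ := exists_pair_ne (Gam ⧸ Zc)
  obtain ⟨a', rfl⟩ := ht a
  obtain ⟨b', rfl⟩ := ht b
  exact hab ((MonoidHom.mem_ker.1 (htop ▸ Subgroup.mem_top a')).trans
    (MonoidHom.mem_ker.1 (htop ▸ Subgroup.mem_top b')).symm)

theorem card_Gam : Nat.card Gam = 2903040 := by
  obtain ⟨e⟩ := exists_equiv_quo
  have h := Subgroup.card_eq_card_quotient_mul_card_subgroup Zc
  rw [← Nat.card_congr e.toEquiv, card_SpG, Nat.card_zpowers,
    orderOf_eq_prime (p := 2) zC_sq zC_ne] at h
  exact h

theorem zC_mem_commutator : zC ∈ commutator Gam := by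
  have h := letter_word (u := [0, 2]) (w := [7, 2, 0]) (by decide) (by decide) (by decide +kernel)
  simp only [gword, List.map_cons, List.map_nil, List.prod_cons, List.prod_nil, mul_one] at h
  have he : zC = ⁅letterG 0, letterG 2⁆ := by
    rw [commutatorElement_def, h, zC]; group
  rw [he, commutator_def]
  exact Subgroup.commutator_mem_commutator (Subgroup.mem_top _) (Subgroup.mem_top _)

/-- The cover map. -/
def toSp : Gam →* SpG :=
  exists_equiv_quo.some.symm.toMonoidHom.comp (QuotientGroup.mk' Zc)

theorem toSp_surjective : Function.Surjective toSp :=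
  exists_equiv_quo.some.symm.surjective.comp (QuotientGroup.mk'_surjective Zc)

theorem toSp_ker : toSp.ker = Zc := by
  ext g
  simp only [toSp, MonoidHom.mem_ker, MonoidHom.comp_apply, MulEquiv.coe_toMonoidHom,
    EmbeddingLike.map_eq_one_iff]
  exact QuotientGroup.eq_one_iff g

theorem perfect_Gam : commutator Gam = ⊤ := by
  rw [eq_top_iff]
  intro g _
  have hSp : commutator SpG = ⊤ := Classical.Symp.commutator_eq_top (Or.inl le_rfl)
  have hmap : (commutator Gam).map toSp = ⊤ := by
    rw [commutator_def, Subgroup.map_commutator, Subgroup.map_top_of_surjective _ toSp_surjective,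
      ← commutator_def, hSp]
  obtain ⟨y, hy, hyg⟩ : toSp g ∈ (commutator Gam).map toSp := hmap ▸ Subgroup.mem_top _
  have hk : y⁻¹ * g ∈ toSp.ker := by
    rw [MonoidHom.mem_ker, map_mul, map_inv, hyg, inv_mul_cancel]
  rw [toSp_ker] at hk
  simpa using (commutator Gam).mul_mem hy ((Subgroup.zpowers_le.2 zC_mem_commutator) hk)

theorem two_list_checks : twoWords.all (fun w => w.all fun k => decide (k < cert.n)) = true ∧
    twoWords.length = 1024 ∧ (∀ b ∈ twoBase, b < 240) ∧
    ((List.range 1023).all fun i =>
      decide (twoBase.foldr (fun b s => runF eltFun (twoWords.getD i []) b + 256 * s) 0 <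
        twoBase.foldr (fun b s => runF eltFun (twoWords.getD (i + 1) []) b + 256 * s) 0)) = true := by
  decide +kernel

theorem not_two_dvd {Δ : Type} [Group Δ] [Finite Δ] (σ : Δ →* Gam)
    (hσ : Cfsg.IsStemExtension σ) : ¬ 2 ∣ Nat.card σ.ker := by
  have hn : cert.n = 10 := by decide +kernel
  have hok : Schur.TwoCert.ok cert = true := by decide +kernel
  have hrel : ∀ r < cert.rules.length, Schur.TwoCert.evalW eltG (cert.rules.getD r ([], [])).1 =
      Schur.TwoCert.evalW eltG (cert.rules.getD r ([], [])).2 := by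
    have h : (List.range cert.rules.length).all (fun r => (List.range 240).all fun i =>
        runF eltFun (cert.rules.getD r ([], [])).1 i == runF eltFun (cert.rules.getD r ([], [])).2 i)
        = true := by decide +kernel
    intro r hr
    have h' := List.all_eq_true.1 h r (List.mem_range.2 hr)
    simp only [List.all_eq_true, List.mem_range, beq_iff_eq] at h'
    refine Subtype.ext (Equiv.ext fun i => Fin.ext ?_)
    show ((((gword eltG _ : Gam) : Equiv.Perm (Fin 240)) i : Fin 240) : ℕ) =
      ((((gword eltG _ : Gam) : Equiv.Perm (Fin 240)) i : Fin 240) : ℕ)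
    rw [gword_elt_apply, gword_elt_apply]
    exact h' i i.2
  set H := Subgroup.closure (eltG '' {i | i < cert.n}) with hH
  have hle : Nat.card H ≤ 2 ^ cert.n := by
    have hok' := hok
    simp only [Schur.TwoCert.ok, Bool.and_eq_true, decide_eq_true_eq] at hok'
    rw [show Nat.card H = (H : Set Gam).ncard from Nat.card_coe_set_eq _]
    exact Schur.TwoCert.ncard_closure_le hok'.1.2 eltG
      (fun r hr => hrel r (lt_of_lt_of_le hr hok'.1.1.2)) cert.n le_rfl
  have hge : 1024 ≤ Nat.card H := by
    obtain ⟨hw, hlen, hb, hmono⟩ := two_list_checks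
    simp only [List.all_eq_true, decide_eq_true_eq] at hw
    simp only [List.all_eq_true, decide_eq_true_eq, List.mem_range] at hmono
    rw [← Nat.card_fin 1024]
    refine Nat.card_le_card_of_injective (fun i : Fin 1024 => (⟨gword eltG (twoWords.getD i.val []),
      gword_mem H _ fun k hk => Subgroup.subset_closure ⟨k, hw _ (by
        rw [List.getD_eq_getElem _ _ (by omega)]; exact List.getElem_mem _) k hk, rfl⟩⟩ : H)) ?_
    let code : ℕ → ℕ := fun i =>
      twoBase.foldr (fun b s => runF eltFun (twoWords.getD i []) b + 256 * s) 0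
    have hlt : ∀ i j : Fin 1024, i < j → code i.val < code j.val := by
      intro i j hij
      have : ∀ d, i.val + d + 1 < 1024 → code i.val < code (i.val + d + 1) := by
        intro d
        induction d with
        | zero => intro h; exact hmono i.val (by omega)
        | succ d ih =>
          intro h
          exact (ih (by omega)).trans (hmono (i.val + d + 1) (by omega))
      have hij' : i.val < j.val := hij
      have := this (j.val - i.val - 1) (by omega)
      rwa [show i.val + (j.val - i.val - 1) + 1 = j.val by omega] at this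
    have hcode : ∀ i j : Fin 1024, gword eltG (twoWords.getD i.val []) = gword eltG (twoWords.getD j.val []) →
        code i.val = code j.val := by
      intro i j e
      simp only [code]
      refine List.foldr_ext _ _ _ fun b hb' s => ?_
      rw [← gword_elt_apply _ ⟨b, hb b hb'⟩, ← gword_elt_apply _ ⟨b, hb b hb'⟩, e]
    intro i j hij
    have e := hcode i j (congrArg Subtype.val hij)
    rcases lt_trichotomy i j with h | h | h
    · exact absurd e (hlt i j h).ne
    · exact h
    · exact absurd e.symm (hlt j i h).ne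
  have hcard : Nat.card H = 2 ^ cert.n := by
    refine le_antisymm hle ?_
    rw [hn]
    exact hge
  refine Schur.TwoCert.not_two_dvd_card_ker hσ hok eltG hrel hcard ?_
  rw [← hH]
  have := H.card_mul_index
  rw [hcard, hn, card_Gam] at this
  norm_num at this
  omega

theorem noMult_two : SchurClassical.NoMult 2 Gam := by
  intro Γ _ _ σ hs hc hA
  let D := commutator Γ
  let τ : D →* Gam := σ.comp D.subtype
  have hmap : D.map σ = ⊤ := by
    simp only [D, commutator_def]
    rw [Subgroup.map_commutator, Subgroup.map_top_of_surjective _ hs, ← commutator_def, perfect_Gam]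
  have hτs : Function.Surjective τ := fun g => by
    obtain ⟨x, hx, rfl⟩ : g ∈ D.map σ := hmap ▸ Subgroup.mem_top g
    exact ⟨⟨x, hx⟩, rfl⟩
  have hDD : commutator Γ ≤ ⁅D, D⁆ := by
    rw [commutator_def, Subgroup.commutator_le]
    intro a _ b _
    obtain ⟨a', ha, ea⟩ : σ a ∈ D.map σ := hmap ▸ Subgroup.mem_top _
    obtain ⟨b', hb, eb⟩ : σ b ∈ D.map σ := hmap ▸ Subgroup.mem_top _
    rw [Schur.commutator_congr hc ea.symm eb.symm]
    exact Subgroup.commutator_mem_commutator ha hb
  have hperfD : commutator D = ⊤ := by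
    apply Subgroup.map_injective D.subtype_injective
    rw [Subgroup.map_subtype_commutator, ← MonoidHom.range_eq_map, Subgroup.range_subtype]
    exact le_antisymm (Subgroup.commutator_mono le_top le_top) hDD
  have hstem : Cfsg.IsStemExtension τ := ⟨hτs, fun d hd => Subgroup.mem_center_iff.2 fun d' =>
    Subtype.ext (Subgroup.mem_center_iff.1 (hc (show (d : Γ) ∈ σ.ker from hd)) d'),
    by rw [hperfD]; exact le_top⟩
  have h2 := not_two_dvd τ hstem
  rw [eq_bot_iff]
  rintro a ⟨ha, hd⟩
  obtain ⟨k, hk⟩ := hA ⟨a, ha⟩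
  have hn : (⟨⟨a, hd⟩, ha⟩ : τ.ker) ^ Nat.card τ.ker = 1 := pow_card_eq_one'
  have hn' : a ^ Nat.card τ.ker = 1 := congrArg (fun t : τ.ker => ((t : D) : Γ)) hn
  exact Subgroup.mem_bot.2 (SchurClassical.eq_one_of_pow_prime_pow
    (congrArg (fun t : σ.ker => (t : Γ)) hk) hn' (Nat.prime_two.coprime_iff_not_dvd.2 h2))

theorem noMult_Gam {r : ℕ} (hr : r.Prime) : SchurClassical.NoMult r Gam := by
  by_cases h2 : r = 2
  · exact h2 ▸ noMult_two
  haveI : CharP (ZMod 2) 2 := inferInstance
  have hsp : SchurClassical.NoMult r SpG :=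
    SchurClassical.Sp.noMult_sp_cross Nat.prime_two hr h2
      (fun h => SchurClassical.Sp.noMult_sp4_two h hr h2) 3 (by norm_num)
  refine SchurClassical.noMult_of_pGroup_ker Nat.prime_two hr h2 toSp toSp_surjective ?_ hsp
  rw [toSp_ker]
  refine IsPGroup.of_card (n := 1) ?_
  rw [Nat.card_zpowers, orderOf_eq_prime (p := 2) zC_sq zC_ne, pow_one]

theorem multiplier_PSp {F : Type*} [Field F] [Fintype F] (hF : Fintype.card F = 2) :
    Cfsg.HasCyclicSchurMultiplier (Cfsg.PSp 3 F) 2 := by
  have hz : Subgroup.center SpG = ⊥ := Subgroup.card_eq_one.1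
    (Classical.Symp.card_center_of_two_eq_zero (by decide))
  let e : SpG ≃* Cfsg.PSp 3 F :=
    (QuotientGroup.quotientBot.symm.trans (QuotientGroup.quotientMulEquivOfEq hz.symm)).trans
      (FieldChange.pspEquiv (ZMod.ringEquivOfPrime F Nat.prime_two hF) 3)
  have hstem : Cfsg.IsStemExtension toSp :=
    ⟨toSp_surjective, by rw [toSp_ker]; exact Zc_le_center,
      by rw [toSp_ker]; exact Subgroup.zpowers_le.2 zC_mem_commutator⟩
  haveI : Fact (Nat.Prime 2) := ⟨Nat.prime_two⟩
  haveI : IsCyclic toSp.ker := isCyclic_of_prime_card (p := 2) (by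
    rw [toSp_ker, Nat.card_zpowers, orderOf_eq_prime (p := 2) zC_sq zC_ne])
  have hM : Cfsg.HasCyclicSchurMultiplier SpG 2 :=
    SchurClassical.hasSchurMultiplier_of_cover toSp hstem perfect_Gam (fun r hr => noMult_Gam hr)
      (mulEquivOfCyclicCardEq (by
        rw [Nat.card_congr Multiplicative.toAdd, Nat.card_zmod, toSp_ker, Nat.card_zpowers,
          orderOf_eq_prime (p := 2) zC_sq zC_ne]))
  exact SchurMult.hasSchurMultiplier_congr_left e hM

end CfsgLib.SpSix
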