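import Cfsg.Agent.CosetEnum.Present
import Cfsg.Agent.CosetEnum.Fi22.Table
import Cfsg.Agent.CosetEnum.Fi22.A4.Upper
import Cfsg.Agent.CosetEnum.Fi22.D5.Upper
import Cfsg.Agent.CosetEnum.Fi22.E6.Upper
import Cfsg.Agent.CosetEnum.Fi22.E7.Upper

/-!
Seven involutions with the Coxeter relations of type `E7` and one further relation generate a group
of order at most 1451520.
-/

set_option autoImplicit false

namespace CfsgLib.SpSix

open CfsgLib.CosetEnum CfsgLib.CosetEnum.Fi22

/-- The letters of the diagram. -/
def L7 : List ℕ := [0, 1, 2, 3, 4, 5, 7]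

variable {Q : Type*} [Group Q]

/-- The relators in the seven letters hold. -/
structure SevenRels (v : ℕ → Q) : Prop where
  rel : ∀ w ∈ Tab.relWords, (∀ x ∈ w, x ∈ L7) → gword v w = 1

theorem SevenRels.sq {v : ℕ → Q} (h : SevenRels v) {x : ℕ} (hx : x ∈ L7) : v x * v x = 1 := by
  have hm : [x, x] ∈ Tab.relWords := by
    have : L7.all (fun x => Tab.relWords.contains [x, x]) = true := by decide +kernel
    exact List.contains_iff_mem.1 (List.all_eq_true.1 this x hx)
  simpa [gword] using h.rel [x, x] hm (by simpa using hx)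

/-- The subgroup generated by some of the elements. -/
def sub7 (v : ℕ → Q) (keep : List ℕ) : Subgroup Q := Subgroup.closure {z | ∃ x ∈ keep, v x = z}

/-- The conditions on the words of a certificate for `keep` over `keep'`. -/
def certWords (C : CertData) (keep keep' : List ℕ) : Bool :=
  (C.words.take C.nr).all (fun w =>
    (w.all (fun x => keep.contains x) &&
      (Tab.relWords.contains w || Tab.relWords.contains (w.reverse.map fun y => y))) ||
    (match w with
      | [x] => !keep.contains x
      | _ => false)) &&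
  (C.words.drop C.nr).all (fun w => w.all fun x => keep'.contains x && keep.contains x) &&
  keep.all (fun x => L7.contains x && x.blt C.L) && (C.L == 9)

theorem SevenRels.relIndex_cert {v : ℕ → Q} (h : SevenRels v) {C : CertData} {keep keep' : List ℕ}
    (hw : certWords C keep keep' = true) {N : ℕ}
    (hf : FactsChecked C.ep C.iv C.words C.nr N) (hn : 0 < C.n) (h0 : C.node 0 = 0)
    (hrows : ∀ i < C.n, checkRow C.ep C.iv N C.L C.node C.T C.tf C.n i = true)
    (hiv : C.iv = fun y => y) :
    (sub7 v keep').relIndex (sub7 v keep) ≤ C.n ∧ (sub7 v keep').relIndex (sub7 v keep) ≠ 0 := by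
  simp only [certWords, Bool.and_eq_true, List.all_eq_true, Bool.or_eq_true, beq_iff_eq] at hw
  obtain ⟨⟨⟨h1, h2⟩, h3⟩, hL⟩ := hw
  have hk7 : ∀ x ∈ keep, x ∈ L7 := fun x hx => List.contains_iff_mem.1 (h3 x hx).1
  let g : ℕ → Q := fun x => if keep.contains x then v x else 1
  have hgv : ∀ x ∈ keep, g x = v x := fun x hx => if_pos (List.contains_iff_mem.2 hx)
  have hg : ∀ x, g (C.iv x) = (g x)⁻¹ := fun x => by
    rw [hiv]
    show g x = (g x)⁻¹
    by_cases hx : x ∈ keep
    · rw [hgv x hx]; exact (inv_eq_of_mul_eq_one_right (h.sq (hk7 x hx))).symm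
    · simp [g, List.contains_iff_mem, hx]
  have hrel : ∀ (k : ℕ) (w : List ℕ), C.words[k]? = some w → k < C.nr → gword g w = 1 := by
    intro k w hk hlt
    have hwm : w ∈ C.words.take C.nr :=
      List.mem_of_getElem? (i := k) (by rw [List.getElem?_take, if_pos hlt, hk])
    rcases h1 w hwm with ⟨hall, hm⟩ | hsingle
    · have hmem : ∀ x ∈ w, x ∈ keep := fun x hx => List.contains_iff_mem.1 (hall x hx)
      rw [List.contains_iff_mem, List.contains_iff_mem] at hm
      rcases hm with hm | hm
      · rw [gword_congr g v fun x hx => hgv x (hmem x hx)]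
        exact h.rel w hm fun x hx => hk7 x (hmem x hx)
      · have hrev : ∀ x ∈ w.reverse.map (fun y => y), x ∈ keep := fun x hx =>
          hmem x (by simpa using hx)
        have hr := h.rel _ hm fun x hx => hk7 x (hrev x hx)
        rw [← gword_congr g v fun x hx => hgv x (hrev x hx)] at hr
        have e := gword_inverse g C.iv hg w
        rw [hiv] at e
        exact inv_eq_one.1 (e.symm.trans hr)
    · match w, hsingle with
      | [x], hx =>
        simp only [Bool.not_eq_true'] at hx
        show gword g [x] = 1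
        rw [gword_cons, gword_nil, mul_one]
        show (if keep.contains x then v x else 1) = 1
        rw [hx]; rfl
  have hsub : ∀ (k : ℕ) (w : List ℕ), C.words[k]? = some w → gword g w ∈ sub7 v keep' := by
    intro k w hk
    by_cases hlt : k < C.nr
    · rw [hrel k w hk hlt]; exact one_mem _
    · have hwm : w ∈ C.words.drop C.nr :=
        List.mem_of_getElem? (i := k - C.nr)
          (by rw [List.getElem?_drop, show C.nr + (k - C.nr) = k by omega, hk])
      refine gword_mem _ _ fun x hx => ?_
      obtain ⟨hx', hxk⟩ := h2 w hwm x hx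
      rw [hgv x (List.contains_iff_mem.1 hxk)]
      exact Subgroup.subset_closure ⟨x, List.contains_iff_mem.1 hx', rfl⟩
  have hr := relIndex_le hf hn h0 hrows (sub7 v keep') g hg hrel hsub
  rw [show Subgroup.closure {z | ∃ x < C.L, g x = z} = sub7 v keep by
    refine le_antisymm ((Subgroup.closure_le _).2 ?_) ((Subgroup.closure_le _).2 ?_)
    · rintro _ ⟨x, -, rfl⟩
      by_cases hx : x ∈ keep
      · exact Subgroup.subset_closure ⟨x, hx, (hgv x hx).symm⟩
      · rw [show g x = 1 by simp [g, List.contains_iff_mem, hx]]; exact one_mem _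
    · rintro _ ⟨x, hx, rfl⟩
      refine Subgroup.subset_closure ⟨x, ?_, hgv x hx⟩
      have := (h3 x hx).2
      simpa [Nat.blt, Nat.ble_eq] using this] at hr
  exact hr

theorem card_step {v : ℕ → Q} {keep keep' : List ℕ} {b c n : ℕ}
    (hsub : keep'.all (fun x => keep.contains x) = true)
    (h : Nat.card (sub7 v keep') ≤ b ∧ Nat.card (sub7 v keep') ≠ 0)
    (hr : (sub7 v keep').relIndex (sub7 v keep) ≤ n ∧ (sub7 v keep').relIndex (sub7 v keep) ≠ 0)
    (hc : n * b = c) : Nat.card (sub7 v keep) ≤ c ∧ Nat.card (sub7 v keep) ≠ 0 := by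
  have hle : sub7 v keep' ≤ sub7 v keep := Subgroup.closure_mono fun _ ⟨x, hx, e⟩ =>
    ⟨x, List.contains_iff_mem.1 (List.all_eq_true.1 hsub x hx), e⟩
  have := Subgroup.relIndex_mul_relIndex ⊥ (sub7 v keep') (sub7 v keep) bot_le hle
  rw [Subgroup.relIndex_bot_left, Subgroup.relIndex_bot_left] at this
  rw [← this, ← hc]
  exact ⟨(Nat.mul_le_mul h.1 hr.1).trans (le_of_eq (Nat.mul_comm _ _)), Nat.mul_ne_zero h.2 hr.2⟩

/-- The bound. -/
theorem SevenRels.card_le {v : ℕ → Q} (h : SevenRels v) :
    Nat.card (sub7 v L7) ≤ 1451520 ∧ Nat.card (sub7 v L7) ≠ 0 := by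
  have h0 : Nat.card (sub7 v []) ≤ 1 ∧ Nat.card (sub7 v []) ≠ 0 := by
    have : sub7 v [] = ⊥ := by
      rw [sub7, Subgroup.closure_eq_bot_iff]
      rintro _ ⟨x, hx, rfl⟩
      exact absurd hx List.not_mem_nil
    rw [this, Subgroup.card_bot]
    exact ⟨le_rfl, one_ne_zero⟩
  have h1 := card_step (c := 120) (keep := [2, 3, 4, 5]) (by decide) h0
    ((show A4.cert.n = 120 from rfl) ▸ h.relIndex_cert (C := A4.cert) (by decide +kernel) A4.facts
      A4.n_pos A4.node_zero A4.rows rfl) (by norm_num)
  have h2 := card_step (c := 1920) (keep := [2, 3, 4, 5, 7]) (by decide) h1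
    ((show D5.cert.n = 16 from rfl) ▸ h.relIndex_cert (C := D5.cert) (by decide +kernel) D5.facts
      D5.n_pos D5.node_zero D5.rows rfl) (by norm_num)
  have h3 := card_step (c := 51840) (keep := [1, 2, 3, 4, 5, 7]) (by decide) h2
    ((show E6.cert.n = 27 from rfl) ▸ h.relIndex_cert (C := E6.cert) (by decide +kernel) E6.facts
      E6.n_pos E6.node_zero E6.rows rfl) (by norm_num)
  exact card_step (keep := L7) (by decide) h3
    ((show E7.cert.n = 28 from rfl) ▸ h.relIndex_cert (C := E7.cert) (by decide +kernel) E7.facts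
      E7.n_pos E7.node_zero E7.rows rfl) (by norm_num)

end CfsgLib.SpSix
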