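import Cfsg.Agent.SpSix.Bound
import Cfsg.Agent.SpSix.CoverData
import Cfsg.Agent.Classical.Symp.Transvection
import Cfsg.Agent.Classical.Symp.Simple
import Cfsg.Agent.Classical.Symp.Card

/-!
`Sp6(2)` is generated by seven transvections satisfying the relations of the `E7` diagram.
-/

set_option autoImplicit false
set_option maxRecDepth 100000
set_option synthInstance.maxSize 512

namespace CfsgLib.SpSix

open CfsgLib.CosetEnum CfsgLib.Classical.Symp

/-- The group. -/
abbrev SpG : Type := Matrix.symplecticGroup (Fin 3) (ZMod 2)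

/-- The matrices. -/
abbrev Mat6 : Type := Matrix (Fin 3 ⊕ Fin 3) (Fin 3 ⊕ Fin 3) (ZMod 2)

/-- A vector from a bit string. -/
def vecOf (c : ℕ) : Fin 3 ⊕ Fin 3 → ZMod 2
  | .inl i => if c.testBit i.val then 1 else 0
  | .inr i => if c.testBit (i.val + 3) then 1 else 0

/-- The code of a vector. -/
def codeOf (w : Fin 3 ⊕ Fin 3 → ZMod 2) : ℕ :=
  (List.range 3).foldr (fun i s => (if w (.inl (Fin.ofNat 3 i)) = 1 then 2 ^ i else 0) +
    (if w (.inr (Fin.ofNat 3 i)) = 1 then 2 ^ (i + 3) else 0) + s) 0

theorem vecOf_codeOf : ∀ w : Fin 3 ⊕ Fin 3 → ZMod 2, codeOf w < 64 ∧ vecOf (codeOf w) = w := by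
  decide +kernel

/-- The seven transvections. -/
def tGen (x : ℕ) : SpG := spT (vecOf (vecCodes.getD x 0)) 1

/-- Their matrices. -/
def tMat (x : ℕ) : Mat6 := Cfsg.sympTransvection 3 (vecOf (vecCodes.getD x 0)) 1

/-- The matrix of a word. -/
def matWord : List ℕ → Mat6
  | [] => 1
  | x :: w => tMat x * matWord w

theorem coe_gword : ∀ w : List ℕ, ((gword tGen w : SpG) : Mat6) = matWord w := by
  intro w
  induction w with
  | nil => rfl
  | cons x w ih =>
    rw [gword_cons, Submonoid.coe_mul, ih]
    rfl

/-- The letters of the diagram as positions. -/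
def pos (x : ℕ) : ℕ := if x = 7 then 6 else x

theorem sp_checks : ((CosetEnum.Fi22.Tab.relWords.all fun w =>
      !(w.all fun x => L7.contains x) || decide (matWord (w.map pos) = 1)) = true) ∧
    (∀ c : Fin 64, matWord (transWords.getD c.val []) =
      Cfsg.sympTransvection 3 (vecOf c.val) 1) ∧
    (∀ c : Fin 64, (transWords.getD c.val []).all (fun x => decide (x < 7)) = true) := by
  decide +kernel

/-- The generators indexed by the diagram. -/
def tLetter (x : ℕ) : SpG := tGen (pos x)

theorem sevenRels : SevenRels tLetter := by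
  refine ⟨fun w hw hx => ?_⟩
  have h := List.all_eq_true.1 sp_checks.1 w hw
  have hall : (w.all fun x => L7.contains x) = true :=
    List.all_eq_true.2 fun x hx' => List.contains_iff_mem.2 (hx x hx')
  rw [hall] at h
  have h' : matWord (w.map pos) = 1 := of_decide_eq_true (by simpa using h)
  refine Subtype.ext ?_
  have e : gword tLetter w = gword tGen (w.map pos) := by simp only [gword, List.map_map, Function.comp_def]; rfl
  rw [e, coe_gword, h']
  rfl

theorem sub7_top : sub7 tLetter L7 = ⊤ := by
  rw [eq_top_iff, ← closure_transvectionSet, Subgroup.closure_le]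
  rintro A ⟨w, c, hA⟩
  have hc : c = 0 ∨ c = 1 := (by decide : ∀ c : ZMod 2, c = 0 ∨ c = 1) c
  rcases hc with rfl | rfl
  · have : A = 1 := (Subtype.ext (hA.trans (spT_coe w 0).symm)).trans (spT_zero w)
    rw [this]
    exact one_mem _
  · obtain ⟨hlt, hw⟩ := vecOf_codeOf w
    have e : A = gword tGen (transWords.getD (codeOf w) []) := by
      refine Subtype.ext ?_
      rw [hA, coe_gword, sp_checks.2.1 ⟨codeOf w, hlt⟩, hw]
    rw [e]
    refine gword_mem _ _ fun x hx => ?_
    have hx7 := of_decide_eq_true (List.all_eq_true.1 (sp_checks.2.2 ⟨codeOf w, hlt⟩) x hx)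
    refine Subgroup.subset_closure ⟨if x = 6 then 7 else x, ?_, ?_⟩
    · interval_cases x <;> decide
    · interval_cases x <;> rfl

theorem card_SpG : Nat.card SpG = 1451520 := by
  rw [card_symplecticGroup, ZMod.card]
  simp [Finset.prod_range_succ]

end CfsgLib.SpSix
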